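import Cfsg.Agent.H46.TitsMult.Action
import Cfsg.Agent.H46.TitsMult.Checks2
import Cfsg.Agent.H46.TitsMult.Checks3
import Cfsg.Agent.H46.TitsMult.Checks5
import Cfsg.Agent.H13.SylMult.Mult

/-!
The Schur multiplier of the Tits group is trivial.
-/

set_option autoImplicit false
set_option maxRecDepth 100000

namespace Cfsg.Agent.H46.TitsMult

open Cfsg Cfsg.Agent.H13.SylMult Cfsg.Agent.H36 Cfsg.Agent.H16

theorem card_ker_dvd_one (Δ : Type) [Group Δ] [Finite Δ]
    (τ : Δ →* Subgroup.closure (Set.range σG)) (hτ : Cfsg.IsStemExtension τ) : Nat.card τ.ker ∣ 1 := by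
  obtain ⟨E2, F2, h2⟩ := groupFacts (R := perm2) (D := pc2) (C := cert2) σG σG_rep perm2_ok
    (by decide +kernel) (show Nat.Prime 2 by norm_num) pc2_ok rows2_ok (by decide +kernel)
  obtain ⟨E3, F3, h3⟩ := groupFacts (R := perm3) (D := pc3) (C := cert3) σG σG_rep perm3_ok
    (by decide +kernel) (show Nat.Prime 3 by norm_num) pc3_ok rows3_ok (by decide +kernel)
  obtain ⟨E5, F5, h5⟩ := groupFacts (R := perm5) (D := pc5) (C := cert5) σG σG_rep perm5_ok
    (by decide +kernel) (show Nat.Prime 5 by norm_num) pc5_ok rows5_ok (by decide +kernel)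
  have b2 := factorization_ker_le hτ (show Nat.Prime 2 by norm_num) pc2_ok rows2_ok combos2_ok h2
    (factorization_eq (a := 11) (b := 8775) (by norm_num : Nat.Prime 2) (by rw [card_closure]; rfl)
      (show ¬ (2 : ℕ) ∣ 8775 by norm_num))
  have b3 := factorization_ker_le hτ (show Nat.Prime 3 by norm_num) pc3_ok rows3_ok combos3_ok h3
    (factorization_eq (a := 3) (b := 665600) (by norm_num : Nat.Prime 3) (by rw [card_closure]; rfl)
      (show ¬ (3 : ℕ) ∣ 665600 by norm_num))
  have b5 := factorization_ker_le hτ (show Nat.Prime 5 by norm_num) pc5_ok rows5_ok combos5_ok h5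
    (factorization_eq (a := 2) (b := 718848) (by norm_num : Nat.Prime 5) (by rw [card_closure]; rfl)
      (show ¬ (5 : ℕ) ∣ 718848 by norm_num))
  refine card_ker_dvd hτ one_ne_zero [2, 3, 5] (fun p hp => ?_) (fun p hp hn => ?_)
  · rw [Nat.factorization_one, Finsupp.coe_zero, Pi.zero_apply]
    simp only [List.mem_cons, List.not_mem_nil, or_false] at hp
    rcases hp with rfl | rfl | rfl
    · exact b2
    · exact b3
    · exact b5
  · rw [card_closure]
    simp only [List.mem_cons, List.not_mem_nil, or_false, not_or] at hn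
    by_contra hlt
    have hd : p ^ 2 ∣ 2 ^ 11 * (3 ^ 3 * (5 ^ 2 * 13)) := by
      refine (pow_dvd_pow p (by omega : 2 ≤ (17971200 : ℕ).factorization p)).trans ?_
      norm_num
      exact Nat.ordProj_dvd 17971200 p
    have cop : ∀ q k, q.Prime → p ≠ q → Nat.Coprime (p ^ 2) (q ^ k) := fun q k hq hne =>
      Nat.Coprime.pow 2 k ((Nat.coprime_primes hp hq).2 hne)
    have h3 := (cop 5 2 (by norm_num) hn.2.2).dvd_of_dvd_mul_left
      ((cop 3 3 Nat.prime_three hn.2.1).dvd_of_dvd_mul_left
        ((cop 2 11 Nat.prime_two hn.1).dvd_of_dvd_mul_left hd))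
    rw [(Nat.prime_dvd_prime_iff_eq hp (by norm_num)).1 ((dvd_pow_self p two_ne_zero).trans h3)] at h3
    norm_num at h3

attribute [local irreducible] σG Cfsg.Lie.twistedF4 Cfsg.Lie.chevF4

theorem hasMultiplier : Cfsg.HasCyclicSchurMultiplier Cfsg.Lie.TitsGroup 1 := by
  refine hasCyclic_of_bound (X := Cfsg.Lie.TitsGroup) (H := ↥(Subgroup.closure (Set.range σG))) (n := 1) equivModel (fun Δ _ _ τ hτ => card_ker_dvd_one Δ τ hτ) one_ne_zero
    ⟨_, inferInstance, inferInstance, MonoidHom.id _, H82.isStemExtension_id, ?_, ?_⟩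
  · rw [(MonoidHom.ker_eq_bot_iff _).mpr Function.injective_id]; exact Bot.isCyclic
  · rw [(MonoidHom.ker_eq_bot_iff _).mpr Function.injective_id, Subgroup.card_bot]

end Cfsg.Agent.H46.TitsMult
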